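import Cfsg.Agent.H200.VZ.VBne
import Cfsg.Agent.H639.OZ.EndC
import Cfsg.Agent.H730.OZ.Defs
import Cfsg.Agent.H686.CharKit

/-!
# S4842: the middle case of `PSp_6`, `PSp_8`, `Ω_7`, `Ω_9` (helper200)

`hc_three`, `hc_four` : no irreducible character of `Y` vanishing on exactly one class has
`∑ χ(u) = e p^{2 n a} χ(1)`, `u` over the `p`-elements.
-/

set_option autoImplicit false
set_option linter.unusedSectionVars false

open Cfsg

namespace Cfsg.Agent.H200.VZ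

open CoxeterSystem Cfsg.Agent.ChevalleyStructure.CoxeterGeom Cfsg.Agent.Tits.Roots Cfsg.Agent.Tits.Core
  Cfsg.Agent.Tits.Exchange Cfsg.Agent.Nodes.Reps Cfsg.Agent.Nodes.BNOf Cfsg.Agent.Nodes.StabComb
  Cfsg.Agent.Nodes.Bruhat Cfsg.Agent.Nodes.OppDec Cfsg.Agent.Nodes.LeviDec Cfsg.Agent.H985.VZ
  Cfsg.Agent.Nodes.TypeC Cfsg.Agent.H730.OZ Module

universe u

section

variable {I W : Type*} {Y : Type u} [Fintype I] [DecidableEq I] [Group W] [Group Y] {M : CoxeterMatrix I}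

/-- two non-conjugate elliptic elements with the diagonal automorphisms -/
def Els (cs : CoxeterSystem M W) {A : I → I → ℤ} (h : IsCartan M A) (T : Subgroup Y) (n : I → Y)
    (X : (I → ℤ) → Subgroup Y) {X0 : Type*} [Group X0] (hh : I → X0 →* Y) (J : Set I) : Prop :=
  ∃ t t' : Y, Ell cs h T X J t ∧ Ell cs h T X J t' ∧ ¬ IsConj t t' ∧ HD cs h T n X hh J t ∧ HD cs h T n X hh J t'

theorem Els.exists_ne {cs : CoxeterSystem M W} {A : I → I → ℤ} {h : IsCartan M A} {T : Subgroup Y} {n : I → Y}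
    {X : (I → ℤ) → Subgroup Y} {X0 : Type*} [Group X0] {hh : I → X0 →* Y} {J : Set I} (hE : Els cs h T n X hh J)
    {χ : Y → ℂ} (hz : OneZero χ) : ∃ t : Y, Ell cs h T X J t ∧ HD cs h T n X hh J t ∧ χ t ≠ 0 := by
  obtain ⟨t, t', h1, h2, h3, h4, h5⟩ := hE
  obtain ⟨x, -, hx⟩ := hz
  by_cases h6 : χ t = 0
  · exact ⟨t', h2, h5, fun h7 => h3 ((hx t h6).symm.trans (hx t' h7))⟩
  · exact ⟨t, h1, h4, h6⟩

end

variable {W : Type*} {Y : Type u} [Group W] [Group Y] [Finite Y] {p : ℕ} {T : Subgroup Y} {X0 : Type*} [Group X0]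

/-- **rank three** -/
theorem hc_three (o : Bool) {cs : CoxeterSystem (CoxeterMatrix.B 3) W} {n : Fin 3 → Y}
    {X : (Fin 3 → ℤ) → Subgroup Y} {hh : Fin 3 → X0 →* Y}
    (R : RGD cs (isCartan 3) p T n X) (hp : p.Prime) (hG : GG cs (isCartan 3) T X = ⊤)
    (hT : ∀ s ∈ T, ∀ t ∈ T, s * t = t * s) (td : TD T n (Ap o 3) hh)
    (E2 : Els cs (isCartan 3) T n X hh {2}ᶜ) (E1 : Els cs (isCartan 3) T n X hh {1}ᶜ) {a : ℕ} (ha : 0 < a)
    (hq : ∀ i, qq X i = p ^ a) {r : ℕ} (hr : r.Prime) (hr1 : r ∣ (p ^ a) ^ 3 + 1) (hr2 : ¬ r ∣ 2 * (1 + p ^ a))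
    {χ : Y → ℂ} (hχ : IsIrrCharacter Y χ) (hz : OneZero χ) (hr3 : ¬ r ∣ charDegree χ) {m : ℕ} {e : ℤ}
    (he : e = 1 ∨ e = -1) (hS : ∑ᶠ u ∈ pSet p Y, χ u = (e : ℂ) * (p : ℂ) ^ m * χ 1) : m ≠ 2 * 3 * a := by
  classical
  rintro hm
  have : Finite W := finite_W cs
  have := Fintype.ofFinite Y
  obtain ⟨t, ht, hd, h1⟩ := E2.exists_ne hz
  obtain ⟨t', ht', hd', h1'⟩ := E1.exists_ne hz
  have hdeg : ((charDegree χ : ℕ) : ℂ) = χ 1 := H686.CharKit.charDegree_cast (Characters.Core.isIrr_isCharacter hχ)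
  obtain ⟨N, ρ, hρ, rfl⟩ := hχ
  have h0 := VB_ne_three o R hG hT hρ ht h1 hd ht' h1' hd' td
  have h2 := H639.OZ.no_mid_three R hp hG hρ h0 he hS ha hq hm ht h1 ht' h1' hr hr1 hr2
  apply hr3
  rw [Representation.char_one] at hdeg
  have h3 : charDegree ρ.character = finrank ℂ (Fin N → ℂ) := by exact_mod_cast hdeg
  rw [h3]
  exact h2

/-- **rank four** -/
theorem hc_four (o : Bool) {cs : CoxeterSystem (CoxeterMatrix.B 4) W} {n : Fin 4 → Y}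
    {X : (Fin 4 → ℤ) → Subgroup Y} {hh : Fin 4 → X0 →* Y}
    (R : RGD cs (isCartan 4) p T n X) (hp : p.Prime) (hG : GG cs (isCartan 4) T X = ⊤)
    (hT : ∀ s ∈ T, ∀ t ∈ T, s * t = t * s) (td : TD T n (Ap o 4) hh)
    (E2 : Els cs (isCartan 4) T n X hh {3}ᶜ) (E1 : Els cs (isCartan 4) T n X hh {2}ᶜ) {a : ℕ} (ha : 0 < a)
    (hq : ∀ i, qq X i = p ^ a) {r : ℕ} (hr : r.Prime) (hr1 : r ∣ (p ^ a) ^ 4 + 1) (hr2 : ¬ r ∣ 2 * (1 + p ^ a))
    {χ : Y → ℂ} (hχ : IsIrrCharacter Y χ) (hz : OneZero χ) (hr3 : ¬ r ∣ charDegree χ) {m : ℕ} {e : ℤ}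
    (he : e = 1 ∨ e = -1) (hS : ∑ᶠ u ∈ pSet p Y, χ u = (e : ℂ) * (p : ℂ) ^ m * χ 1) : m ≠ 2 * 4 * a := by
  classical
  rintro hm
  have : Finite W := finite_W cs
  have := Fintype.ofFinite Y
  obtain ⟨t, ht, hd, h1⟩ := E2.exists_ne hz
  obtain ⟨t', ht', hd', h1'⟩ := E1.exists_ne hz
  have hdeg : ((charDegree χ : ℕ) : ℂ) = χ 1 := H686.CharKit.charDegree_cast (Characters.Core.isIrr_isCharacter hχ)
  obtain ⟨N, ρ, hρ, rfl⟩ := hχ
  have h0 := VB_ne_four o R hG hT hρ ht h1 hd ht' h1' hd' td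
  have h2 := H639.OZ.no_mid_four R hp hG hρ h0 he hS ha hq hm ht h1 ht' h1' hr hr1 hr2
  apply hr3
  rw [Representation.char_one] at hdeg
  have h3 : charDegree ρ.character = finrank ℂ (Fin N → ℂ) := by exact_mod_cast hdeg
  rw [h3]
  exact h2

end Cfsg.Agent.H200.VZ
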