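import Cfsg.Agent.H200.VZ.Asm
import Cfsg.Agent.H769.OZ.SpTD
import Cfsg.Agent.H769.OZ.SpRow

/-!
# S4842: the middle case of `PSp_6(q)`, `PSp_8(q)` (helper200)
-/

set_option autoImplicit false
set_option linter.unusedSectionVars false

namespace Cfsg.Agent.H200.VZ

open CoxeterSystem Cfsg Cfsg.Agent.ChevalleyStructure.CoxeterGeom Cfsg.Agent.Tits.Roots
open Cfsg.Agent.Nodes.TypeC
open Cfsg.Agent.Nodes Cfsg.Agent.Nodes.WittRoot Cfsg.Agent.Nodes.BNOf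
open Cfsg.Agent.Nodes.WittRGD Cfsg.Agent.Nodes.WittAll Cfsg.Agent.Nodes.LeviDec
open Cfsg.Agent.TitsThree Cfsg.Agent.TitsThree.Siegel Cfsg.Agent.TitsThree.WittFrame
  Cfsg.Agent.TitsThree.WittWeyl Cfsg.Agent.TitsThree.FrameCN Cfsg.Agent.TitsThree.SpIdent
open Cfsg.Agent.H985.VZ Cfsg.Agent.ClassicalGeometry Cfsg.Agent.H769.OZ Cfsg.Agent.H730.OZ

variable {F : Type} [Field F] [Fintype F]

theorem qq_psp {m : ℕ} {p : ℕ} [Fact p.Prime] [CharP F p] (i : Fin m) :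
    qq (WittModel.X (KInstSp.model m F)) i = Fintype.card F := by
  have hA : AmbT (frame m F) p (KInstSp.model m F).I := AmbT.of_amb WittU.amb_Sp p
  rw [← Nat.card_eq_fintype_card]
  by_cases hi : (i : ℕ) + 1 < m
  · exact qq_short (KInstSp.model m F) (i := i) (j := ⟨i + 1, hi⟩) rfl hA
  · exact qq_long (F := F) (p := p) (i := i) hi hA

/-- the elliptic elements of `PSp_2m` -/
def SpEls (m : ℕ) (F : Type) [Field F] (p : ℕ) (i : Fin m) : Prop :=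
  ∀ (hA : AmbT (frame m F) p (KInstSp.model m F).I), Els (CoxeterMatrix.B m).toCoxeterSystem (isCartan m)
    (WittModel.T (KInstSp.model m F)) (fun i => nS hA i) (WittModel.X (KInstSp.model m F)) (hc (m := m) (F := F)) {i}ᶜ

theorem hc_psp3 {p a : ℕ} [hpp : Fact p.Prime] [CharP F p] (ha : 0 < a) (hcard : Fintype.card F = p ^ a)
    (E2 : SpEls 3 F p 2) (E1 : SpEls 3 F p 1)
    (hnd : ∃ r : ℕ, r.Prime ∧ r ∣ Fintype.card F ^ 3 + 1 ∧ ¬ r ∣ 2 * (1 + Fintype.card F) ∧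
      ∀ χ : PSp 3 F → ℂ, IsIrrCharacter (PSp 3 F) χ → OneZero χ → ¬ r ∣ charDegree χ)
    {χ : PSp 3 F → ℂ} (hχ : IsIrrCharacter (PSp 3 F) χ) (hz : OneZero χ) {m : ℕ} {e : ℤ}
    (he : e = 1 ∨ e = -1) (hS : ∑ᶠ u ∈ pSet p (PSp 3 F), χ u = (e : ℂ) * (p : ℂ) ^ m * χ 1) : m ≠ 2 * 3 * a := by
  have hA : AmbT (frame 3 F) p (KInstSp.model 3 F).I := AmbT.of_amb WittU.amb_Sp p
  obtain ⟨r, hr, hr1, hr2, hr3⟩ := hnd
  rw [hcard] at hr1 hr2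
  exact hc_three false (rgdC_model (KInstSp.model 3 F) hA (p0 := adm 1) one_ne_zero (CoxeterMatrix.B 3).toCoxeterSystem)
    hpp.out (GG_eq (F := F) 3 (by norm_num) _) (T_comm (F := F) 3) (td_sp hA) (E2 hA) (E1 hA) ha
    (fun i => by rw [← hcard]; exact qq_psp (p := p) i) hr hr1 hr2 hχ hz (hr3 χ hχ hz) he hS

theorem hc_psp4 {p a : ℕ} [hpp : Fact p.Prime] [CharP F p] (ha : 0 < a) (hcard : Fintype.card F = p ^ a)
    (E2 : SpEls 4 F p 3) (E1 : SpEls 4 F p 2)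
    (hnd : ∃ r : ℕ, r.Prime ∧ r ∣ Fintype.card F ^ 4 + 1 ∧ ¬ r ∣ 2 * (1 + Fintype.card F) ∧
      ∀ χ : PSp 4 F → ℂ, IsIrrCharacter (PSp 4 F) χ → OneZero χ → ¬ r ∣ charDegree χ)
    {χ : PSp 4 F → ℂ} (hχ : IsIrrCharacter (PSp 4 F) χ) (hz : OneZero χ) {m : ℕ} {e : ℤ}
    (he : e = 1 ∨ e = -1) (hS : ∑ᶠ u ∈ pSet p (PSp 4 F), χ u = (e : ℂ) * (p : ℂ) ^ m * χ 1) : m ≠ 2 * 4 * a := by
  have hA : AmbT (frame 4 F) p (KInstSp.model 4 F).I := AmbT.of_amb WittU.amb_Sp p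
  obtain ⟨r, hr, hr1, hr2, hr3⟩ := hnd
  rw [hcard] at hr1 hr2
  exact hc_four false (rgdC_model (KInstSp.model 4 F) hA (p0 := adm 1) one_ne_zero (CoxeterMatrix.B 4).toCoxeterSystem)
    hpp.out (GG_eq (F := F) 4 (by norm_num) _) (T_comm (F := F) 4) (td_sp hA) (E2 hA) (E1 hA) ha
    (fun i => by rw [← hcard]; exact qq_psp (p := p) i) hr hr1 hr2 hχ hz (hr3 χ hχ hz) he hS

end Cfsg.Agent.H200.VZ
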