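import Cfsg.Agent.H200.VZ.SpAsm
import Cfsg.Agent.H769.OZ.SpHD
import Cfsg.Agent.H366.OZ.NotDvd
import Cfsg.Agent.H448.OZ.PspFin

/-!
# S4842: the rows `PSp_6(q)`, `q ≥ 4`, and `PSp_8(q)`, `q ≥ 3` (helper200)
-/

set_option autoImplicit false
set_option linter.unusedSectionVars false

namespace Cfsg.Agent.H200.VZ

open CoxeterSystem Cfsg Cfsg.Agent.ChevalleyStructure.CoxeterGeom Cfsg.Agent.Tits.Roots
open Cfsg.Agent.Nodes.TypeC
open Cfsg.Agent.Nodes Cfsg.Agent.Nodes.WittRoot Cfsg.Agent.Nodes.BNOf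
open Cfsg.Agent.Nodes.WittRGD Cfsg.Agent.Nodes.WittAll Cfsg.Agent.Nodes.LeviDec
open Cfsg.Agent.TitsThree Cfsg.Agent.TitsThree.Siegel Cfsg.Agent.TitsThree.WittFrame
  Cfsg.Agent.TitsThree.WittWeyl Cfsg.Agent.TitsThree.FrameCN Cfsg.Agent.TitsThree.SpIdent
open Cfsg.Agent.H985.VZ Cfsg.Agent.ClassicalGeometry Cfsg.Agent.H769.OZ Cfsg.Agent.H730.OZ

/-- **The row `PSp_6(q)`, `q ≥ 4`** -/
theorem row_psp6 (F : Type) [Field F] [Fintype F] (hq : 4 ≤ Fintype.card F) (hs : IsSimpleGroup (PSp 3 F)) :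
    Row (PSp 3 F) := by
  classical
  obtain ⟨p, hch⟩ := CharP.exists F
  obtain ⟨⟨a, ha⟩, hp, hcard⟩ := FiniteField.card F p
  simp only [PNat.mk_coe] at hcard
  have hpp : Fact p.Prime := ⟨hp⟩
  have hq' : 4 ≤ Nat.card F := by rw [Nat.card_eq_fintype_card]; exact hq
  refine H448.OZ.row_psp3 hs (MulEquiv.refl _) hq hp ha hcard fun χ hχ hz hS => ?_
  exact hc_psp3 (p := p) (a := a) ha hcard
    (fun hA => psp_last_HD hA _ (Or.inl rfl) (by omega) rfl)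
    (fun hA => psp_pen_HD hA _ (Or.inr ⟨rfl, hq'⟩) rfl)
    (H366.OZ.nd_psp (MulEquiv.refl _) (by norm_num) hp hcard (by omega) (by omega)) hχ hz (m := a * 6) (e := 1)
    (Or.inl rfl) (by rw [hS, Int.cast_one, one_mul]) (by ring)

/-- **The row `PSp_8(q)`, `q ≥ 3`** -/
theorem row_psp8 (F : Type) [Field F] [Fintype F] (hq : 3 ≤ Fintype.card F) (hs : IsSimpleGroup (PSp 4 F)) :
    Row (PSp 4 F) := by
  classical
  obtain ⟨p, hch⟩ := CharP.exists F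
  obtain ⟨⟨a, ha⟩, hp, hcard⟩ := FiniteField.card F p
  simp only [PNat.mk_coe] at hcard
  have hpp : Fact p.Prime := ⟨hp⟩
  have hq' : 3 ≤ Nat.card F := by rw [Nat.card_eq_fintype_card]; exact hq
  refine H448.OZ.row_psp4_mid hs (MulEquiv.refl _) hq hp ha hcard fun χ hχ hz hS => ?_
  exact hc_psp4 (p := p) (a := a) ha hcard
    (fun hA => psp_last_HD hA _ (Or.inr rfl) hq' rfl)
    (fun hA => psp_pen_HD hA _ (Or.inl ⟨rfl, hq'⟩) rfl)
    (H366.OZ.nd_psp (MulEquiv.refl _) (by norm_num) hp hcard (by omega) (by omega)) hχ hz (m := a * 8) (e := 1)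
    (Or.inl rfl) (by rw [hS, Int.cast_one, one_mul]) (by ring)

end Cfsg.Agent.H200.VZ
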